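import Cfsg.Agent.H12.MaxC

/-!
The stabiliser of a non-degenerate line is maximal in `SU₃(q)`, `q ≥ 3`.
-/

set_option autoImplicit false

namespace Cfsg.Agent.MiU

open Module Cfsg.Geo Matrix Cfsg.Agent.H12

section
variable {F V : Type*} [Field F] [AddCommGroup V] [Module F V] {σ : F →+* F}
  {B : V →ₛₗ[σ] V →ₗ[F] F} {M : Subgroup (UG B)} [FiniteDimensional F V]

theorem exists_aniso_two (D : SD B) {U : Submodule F V} (hU : Disjoint U (sperp B U))
    (h2 : finrank F U = 2) {u : V} (hu : u ∈ U) (h0 : B u u ≠ 0) : ∃ r ∈ U, B r r ≠ 0 ∧ B r u = 0 := by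
  have D' := D.restrict hU
  have h1 := D'.finrank_sperp (F ∙ (⟨u, hu⟩ : U))
  have h3 : finrank F (F ∙ (⟨u, hu⟩ : U)) = 1 := finrank_span_singleton (by rintro h; simp_all)
  have h4 : Disjoint (F ∙ (⟨u, hu⟩ : U)) (sperp (res B U) (F ∙ (⟨u, hu⟩ : U))) :=
    D'.disjoint_iff.mpr fun x hx h => by
      obtain ⟨a, rfl⟩ := Submodule.mem_span_singleton.mp hx
      have := h _ (Submodule.mem_span_singleton_self _)
      simp only [res_apply, Submodule.coe_smul, LinearMap.map_smulₛₗ, LinearMap.smul_apply, smul_eq_mul,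
        mul_eq_zero, h0, or_false] at this
      rw [(map_eq_zero σ).mp this, zero_smul]
  obtain ⟨r, r0, r1⟩ := finrank_eq_one_iff'.mp
    (show finrank F (sperp (res B U) (F ∙ (⟨u, hu⟩ : U))) = 1 by omega)
  refine ⟨r.1, r.1.2, fun h5 => r0 (Subtype.ext (D'.disjoint_iff.mp (D'.disjoint_sperp h4) r r.2
    fun v hv => ?_)), D.comm0 (r.2 _ (Submodule.mem_span_singleton_self _))⟩
  obtain ⟨c, hc⟩ := r1 ⟨v, hv⟩
  rw [← show c • r.1 = v from congrArg Subtype.val hc, map_smul, res_apply, h5, smul_zero]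

theorem SUG_le_of_line (D : SD B) (hN : NS σ) (hT : TH B) {W : Submodule F V}
    (hW : Disjoint W (sperp B W)) (h1 : finrank F W = 1) (h3 : finrank F (sperp B W) = 2)
    (hM : ∀ g ∈ SUG B, g ∈ stabW B W → g ∈ M)
    {g : UG B} (hg : g ∈ M) (hg' : g ∉ stabW B W) : SUG B ≤ M := by
  have hU := D.disjoint_sperp hW
  have h : OD B (fun b => cond b W (sperp B W)) := ⟨by rintro (_ | _); exacts [hU, hW], by
    rintro (_ | _) (_ | _) hij <;> simp at hij ⊢
    exact D.le_sperp_sperp W, by rw [iSup_bool_eq]; exact (D.isCompl hW).sup_eq_top⟩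
  replace hM : ∀ g ∈ SUG B, (∀ b, g ∈ stabW B (cond b W (sperp B W))) → g ∈ M :=
    fun g hg H => hM g hg (H true)
  obtain ⟨u, a1, a2⟩ : ∃ u ∈ sperp B W, g.1 u ∉ sperp B W := exists_notMem_of_not_stab fun H =>
    hg' fun w => by simpa only [D.sperp_sperp] using mem_sperp_iff_of_stab H w
  obtain ⟨u', b1, b2⟩ : ∃ u ∈ sperp B W, g.1 u ∉ W := by
    by_contra! H
    have := Submodule.finrank_mono (show (sperp B W).map g.1.toLinearMap ≤ W by
      rintro _ ⟨x, hx, rfl⟩; exact H x hx)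
    rw [LinearEquiv.finrank_map_eq] at this
    omega
  obtain ⟨v, c1, c2, c3⟩ := (D.restrict hU).exists_iso_notMem₂ hN (Or.inr (by omega))
    (comap_ne_top a1 a2) (comap_ne_top b1 b2)
  have hx := (h.is D hM (i := false) v.2 c1).map D hg
  replace c2 : g.1 v ∉ sperp B W := c2
  replace c3 : g.1 v ∉ W := c3
  obtain ⟨w, z, h4⟩ := exists_add_sperp (D.isCompl hW) (g.1 v)
  rw [h4] at hx c2 c3
  have w0 : (w : V) ≠ 0 := fun h => c2 (by simp [h])
  have h5 : ∀ y ∈ W, ∃ a : F, a • (w : V) = y := fun y hy => by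
    have := (finrank_eq_one_iff_of_nonzero' (K := F) w (by simpa using w0)).mp h1 ⟨y, hy⟩
    exact this.imp fun a ha => congrArg Subtype.val ha
  have h6 : B w w ≠ 0 := fun h6 => w0 (D.disjoint_iff.mp hW w w.2 fun y hy => by
    obtain ⟨a, rfl⟩ := h5 y hy
    simp [h6])
  have h7 : ∀ z : sperp B W, B (w + z) (w + z) = 0 → B z z = -B w w := fun z hz => by
    simp only [map_add, LinearMap.add_apply, z.2 w w.2, D.comm0 (z.2 w w.2)] at hz
    linear_combination hz
  have := D.finrank_sperp W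
  refine D.SUG_le_of_IS' hN hT (by omega) (W := sperp B W) (fun H => c2 (H.ge Submodule.mem_top))
    fun y hy hy' => ?_
  obtain ⟨w', z', rfl⟩ := exists_add_sperp (D.isCompl hW) y
  obtain ⟨a, ha⟩ := h5 w' w'.2
  have a0 : a ≠ 0 := by rintro rfl; exact hy' (by simp [← ha])
  have h8 : (w' : V) + z' = a • (w + (a⁻¹ • z' : sperp B W)) := by simp [← ha, smul_smul, a0]
  rw [h8] at hy ⊢
  have h9 := h7 (a⁻¹ • z') (by simpa only [LinearMap.map_smulₛₗ, LinearMap.smul_apply, smul_eq_mul,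
    RingHom.id_apply, mul_eq_zero, a0, D.σ_ne_zero a0, false_or] using hy)
  refine IS.smul D ?_ a
  generalize a⁻¹ • z' = y at h9
  have y1 : B y y ≠ 0 := by rw [h9]; exact neg_ne_zero.mpr h6
  obtain ⟨k, d1, d2⟩ := D.exists_ext_map' hU z.2 y.2 (fun h => c3 (by simp [h]))
    (fun h => y1 (by simp [h])) (by rw [h9, h7 z hx.1])
  obtain ⟨r, r1, r2, r3⟩ := exists_aniso_two D hU h3 y.2 y1
  obtain ⟨k₀, e1, e2, e3, e4⟩ := h.exists_fix_det D k (l := false) (x := w) (y := y)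
    (Or.inr ⟨r, r1, r2, D.comm0 (r1 w w.2), r3⟩)
  have := hx.map D (hM _ e1 fun i => mul_mem (e2 i) (h.loc D (j := false) d2 i))
  rwa [UG_mul_apply, map_add, d1, d2 _ (D.le_sperp_sperp W w.2), map_add, e3, e4] at this

end

theorem row2 {F : Type*} [Field F] [Fintype F] {q : ℕ} (hF : Fintype.card F = q ^ 2) (hq : 3 ≤ q)
    {W : Submodule F (Fin 3 → F)} (h0 : W ≠ ⊥) (hW : IsNondegenerateOn (hermForm 3 F q) W)
    (h2 : 2 * finrank F W < 3) : IsMaximalIn (GU 3 F q ⊓ specialLinear (Fin 3) F)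
      (subspaceStabilizer W ⊓ (GU 3 F q ⊓ specialLinear (Fin 3) F)) := by
  obtain ⟨a, hf⟩ := exists_tvF_su hF (n := 3) (by decide)
  have h1 := (sd_tB hf).finrank_sperp W
  have h3 := Submodule.one_le_finrank_iff.mpr h0
  rw [finrank_fintype_fun_eq_card, Fintype.card_fin] at h1
  refine isMaximalIn_iso hf (fun g => ∀ v, v ∈ W ↔ g v ∈ W) (fun _ => Iff.rfl)
    ((has_SU hf).not_le_stab h0 fun h => ?_) fun M hM _ g hg hg' =>
      SUG_le_of_line (sd_tB hf) (sd_tB hf).ns (Or.inl (exists_fix_frobq hF (by omega)))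
        (disjoint_of_nondegOn hf hW) (by omega)
        (by omega) (fun k hk H => hM k hk (stab_iff.mpr H)) hg (mt stab_iff.mpr hg')
  rw [h, finrank_top, finrank_fintype_fun_eq_card, Fintype.card_fin] at h2
  omega

end Cfsg.Agent.MiU
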